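import Cfsg.Statements.S1730
import Cfsg.Prelude.Def_Classification2
import Cfsg.Agent.Lib.Q5H.LU

/-! An `E₁₆` in the classical groups of the Gorenstein–Harada list (S1730, see `docs/R3.md`) -/

set_option autoImplicit false
set_option linter.unusedSectionVars false

namespace Cfsg.Lib.R3

open Cfsg.Lib.Q5H in
/-- Four independent commuting involutions. -/
theorem e16 {X : Type*} [Group X] {a b c d : X} (ha : a * a = 1) (hb : b * b = 1) (hc : c * c = 1) (hd : d * d = 1)
    (ab : Commute a b) (ac : Commute a c) (ad : Commute a d) (bc : Commute b c) (bd : Commute b d) (cd : Commute c d)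
    (h : ∀ i j k l : ZMod 2, a ^ i.val * b ^ j.val * (c ^ k.val * d ^ l.val) = 1 → i = 0 ∧ j = 0 ∧ k = 0 ∧ l = 0) :
    ¬ PRankLE 2 3 X := by
  have p : ∀ {x : X}, x * x = 1 → ∀ i j : ZMod 2, x ^ (i + j).val = x ^ i.val * x ^ j.val := fun {x} hx i j => by
    rw [← pow_add, ZMod.val_add, ← pow_eq_pow_mod _ (by rwa [pow_two])]
  refine not_rank (V := (ZMod 2 × ZMod 2) × ZMod 2 × ZMod 2) (.mk' (fun v => a ^ v.toAdd.1.1.val * b ^ v.toAdd.1.2.val *
    (c ^ v.toAdd.2.1.val * d ^ v.toAdd.2.2.val)) fun v w => ?_) ((injective_iff_map_eq_one _).2 fun v e => ?_)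
    (by decide) (by simp)
  · simp only [toAdd_mul, Prod.fst_add, Prod.snd_add, p ha, p hb, p hc, p hd]
    rw [(ab.pow_pow _ _).mul_mul_mul_comm, (cd.pow_pow _ _).mul_mul_mul_comm,
      (((ac.pow_pow _ _).mul_right (ad.pow_pow _ _)).mul_left
        ((bc.pow_pow _ _).mul_right (bd.pow_pow _ _))).mul_mul_mul_comm]
  · obtain ⟨h1, h2, h3, h4⟩ := h _ _ _ _ e
    exact Multiplicative.toAdd.injective (Prod.ext (Prod.ext h1 h2) (Prod.ext h3 h4))

/-- `e16` from a list of the fifteen products. -/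
theorem e16l {X : Type*} [Group X] {a b c d : X} (h : ∀ x ∈ [a, b, c, d, a * b, a * c, a * d, b * c, b * d, c * d,
    a * b * c, a * b * d, a * (c * d), b * (c * d), a * b * (c * d)], x ≠ 1 ∧ x * x = 1) : ¬ PRankLE 2 3 X := by
  simp only [List.forall_mem_cons] at h
  obtain ⟨a1, b1, c1, d1, ab, ac, ad, bc, bd, cd, abc, abd, acd, bcd, abcd, -⟩ := h
  refine e16 a1.2 b1.2 c1.2 d1.2 (Q5H.comm_of_sq a1.2 b1.2 ab.2) (Q5H.comm_of_sq a1.2 c1.2 ac.2)
    (Q5H.comm_of_sq a1.2 d1.2 ad.2) (Q5H.comm_of_sq b1.2 c1.2 bc.2) (Q5H.comm_of_sq b1.2 d1.2 bd.2)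
    (Q5H.comm_of_sq c1.2 d1.2 cd.2) fun i j k l e => ?_
  have z : ∀ i : ZMod 2, i = 0 ∨ i = 1 := by decide
  rcases z i with rfl | rfl <;> rcases z j with rfl | rfl <;> rcases z k with rfl | rfl <;>
    rcases z l with rfl | rfl <;>
    simp only [ZMod.val_zero, ZMod.val_one, pow_zero, pow_one, one_mul, mul_one] at e <;> simp_all

open Subgroup QuotientGroup in
/-- An extraspecial group of order 32 modulo the center. -/
theorem e16x {G : Type*} [Group G] {a b c d z : G} (z1 : z ≠ 1) (zc : z ∈ center G) (ha : a * a ∈ center G)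
    (hb : b * b ∈ center G) (hc : c * c ∈ center G) (hd : d * d ∈ center G) (ab : a * b = z * (b * a))
    (cd : c * d = z * (d * c)) (ac : Commute a c) (ad : Commute a d) (bc : Commute b c) (bd : Commute b d) :
    ¬ PRankLE 2 3 (G ⧸ center G) := by
  have two : ∀ {a b : G}, a * b = z * (b * a) → ∀ i j : ZMod 2, Commute a (a ^ i.val * b ^ j.val) →
      Commute b (a ^ i.val * b ^ j.val) → i = 0 ∧ j = 0 := fun {a b} ab i j h1 h2 => by
    have n : ¬ Commute a b := fun e => z1 (by rwa [e.eq, eq_comm, mul_eq_right] at ab)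
    have h3 := ((Commute.refl a).pow_right i.val).inv_right.mul_right h1
    have h4 := h2.mul_right ((Commute.refl b).pow_right j.val).inv_right
    rw [inv_mul_cancel_left] at h3
    rw [mul_inv_cancel_right] at h4
    have z : ∀ i : ZMod 2, i = 0 ∨ i = 1 := by decide
    exact ⟨(z i).resolve_right fun e => n (by simpa [e, ZMod.val_one] using h4.symm),
      (z j).resolve_right fun e => n (by simpa [e, ZMod.val_one] using h3)⟩
  have cm : ∀ {a b : G}, a * b = z * (b * a) → Commute (mk a : G ⧸ center G) (mk b) := fun {a b} e => by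
    rw [Commute, SemiconjBy, ← mk_mul, e, mk_mul, (eq_one_iff z).2 zc, one_mul, mk_mul]
  refine e16 ((eq_one_iff _).2 ha) ((eq_one_iff _).2 hb) ((eq_one_iff _).2 hc) ((eq_one_iff _).2 hd) (cm ab)
    (ac.map (mk' _)) (ad.map (mk' _)) (bc.map (mk' _)) (bd.map (mk' _)) (cm cd) fun i j k l e => ?_
  have e' : ∀ w, Commute w (a ^ i.val * b ^ j.val * (c ^ k.val * d ^ l.val)) :=
    mem_center_iff.1 ((eq_one_iff _).1 e)
  have u : ∀ {w}, Commute w c → Commute w d → Commute w (a ^ i.val * b ^ j.val) := fun h1 h2 => by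
    simpa only [mul_inv_cancel_right] using
      (e' _).mul_right ((h1.pow_right k.val).mul_right (h2.pow_right l.val)).inv_right
  have v : ∀ {w}, Commute w a → Commute w b → Commute w (c ^ k.val * d ^ l.val) := fun h1 h2 => by
    simpa only [inv_mul_cancel_left] using
      ((h1.pow_right i.val).mul_right (h2.pow_right j.val)).inv_right.mul_right (e' _)
  exact and_assoc.1 ⟨two ab i j (u ac ad) (u bc bd), two cd k l (v ac.symm bc.symm) (v ad.symm bd.symm)⟩

open Subgroup QuotientGroup Matrix Cfsg.Lib.Q5H Cfsg.Lib.Q5H.LU Cfsg.Lib.Unitary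

theorem sa_md4 {F G : Type} [Field F] [Group G] {ι : G →* Matrix (Fin 4) (Fin 4) F} (m : Md ι) :
    ¬ PRankLE 2 3 (G ⧸ center G) := by
  obtain ⟨a, ha⟩ := m.ex !![-1, 0, 0, 0; 0, -1, 0, 0; 0, 0, 1, 0; 0, 0, 0, 1] (by decide +kernel) (by decide +kernel)
  obtain ⟨b, hb⟩ := m.ex !![-1, 0, 0, 0; 0, 1, 0, 0; 0, 0, -1, 0; 0, 0, 0, 1] (by decide +kernel) (by decide +kernel)
  obtain ⟨c, hc⟩ := m.ex !![0, 1, 0, 0; 1, 0, 0, 0; 0, 0, 0, 1; 0, 0, 1, 0] (by decide +kernel) (by decide +kernel)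
  obtain ⟨d, hd⟩ := m.ex !![0, 0, 1, 0; 0, 0, 0, 1; 1, 0, 0, 0; 0, 1, 0, 0] (by decide +kernel) (by decide +kernel)
  obtain ⟨g, hg⟩ := m.ex !![0, 0, 1, 0; 1, 0, 0, 0; 0, 1, 0, 0; 0, 0, 0, 1] (by decide +kernel) (by decide +kernel)
  have k := fun {t T} (h : R ι t T) c => let p := h.pure m hg (by decide +kernel) c; And.intro p.1 p.2.1
  refine e16l (a := mk a) (b := mk b) (c := mk c) (d := mk d) ?_
  simp only [List.forall_mem_cons]
  exact ⟨k ha (by decide +kernel), k hb (by decide +kernel), k hc (by decide +kernel), k hd (by decide +kernel),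
    k (.mul ha hb) (by decide +kernel), k (.mul ha hc) (by decide +kernel), k (.mul ha hd) (by decide +kernel),
    k (.mul hb hc) (by decide +kernel), k (.mul hb hd) (by decide +kernel), k (.mul hc hd) (by decide +kernel),
    k (.mul (.mul ha hb) hc) (by decide +kernel), k (.mul (.mul ha hb) hd) (by decide +kernel),
    k (.mul ha (.mul hc hd)) (by decide +kernel), k (.mul hb (.mul hc hd)) (by decide +kernel),
    k (.mul (.mul ha hb) (.mul hc hd)) (by decide +kernel), by simp⟩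

/-- The matrix of a 5-cycle. -/
def saC : Matrix (Fin 5) (Fin 5) ℤ := !![0, 0, 0, 0, 1; 1, 0, 0, 0, 0; 0, 1, 0, 0, 0; 0, 0, 1, 0, 0; 0, 0, 0, 1, 0]

theorem sa_md5 {F G : Type} [Field F] [Group G] {ι : G →* Matrix (Fin 5) (Fin 5) F} (m : Md ι) :
    ¬ PRankLE 2 3 (G ⧸ center G) := by
  obtain ⟨a, ha⟩ := m.ex (diagonal ![-1, -1, 1, 1, 1]) (by decide +kernel) (by simp [Fin.prod_univ_succ])
  obtain ⟨b, hb⟩ := m.ex (diagonal ![1, -1, -1, 1, 1]) (by decide +kernel) (by simp [Fin.prod_univ_succ])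
  obtain ⟨c, hc⟩ := m.ex (diagonal ![1, 1, -1, -1, 1]) (by decide +kernel) (by simp [Fin.prod_univ_succ])
  obtain ⟨d, hd⟩ := m.ex (diagonal ![1, 1, 1, -1, -1]) (by decide +kernel) (by simp [Fin.prod_univ_succ])
  obtain ⟨g, hg⟩ := m.ex saC (by decide +kernel) (by decide +kernel)
  have k : ∀ {t T}, R ι t T → (∃ i j, (T * saC) i j = 1 ∧ (saC * T) i j = -1) ∧ T * T = 1 →
      (mk t : G ⧸ center G) ≠ 1 ∧ (mk t * mk t : G ⧸ center G) = 1 := fun ht ⟨⟨i, j, e1, e2⟩, c2⟩ => by
    refine ⟨mk_ne_one (w := g) fun e => ?_, (ht.mul ht).mk_eq m (b := 1) (by simp [R]) (.inl c2)⟩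
    have := Matrix.ext_iff.2 ((ht.mul hg).symm.trans (e ▸ R.mul hg ht)) i j
    simp only [Matrix.map_apply, e1, e2, map_one, map_neg] at this
    exact m.two (by linear_combination this)
  refine e16l (a := mk a) (b := mk b) (c := mk c) (d := mk d) ?_
  simp only [List.forall_mem_cons]
  exact ⟨k ha (by decide +kernel), k hb (by decide +kernel), k hc (by decide +kernel), k hd (by decide +kernel),
    k (.mul ha hb) (by decide +kernel), k (.mul ha hc) (by decide +kernel), k (.mul ha hd) (by decide +kernel),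
    k (.mul hb hc) (by decide +kernel), k (.mul hb hd) (by decide +kernel), k (.mul hc hd) (by decide +kernel),
    k (.mul (.mul ha hb) hc) (by decide +kernel), k (.mul (.mul ha hb) hd) (by decide +kernel),
    k (.mul ha (.mul hc hd)) (by decide +kernel), k (.mul hb (.mul hc hd)) (by decide +kernel),
    k (.mul (.mul ha hb) (.mul hc hd)) (by decide +kernel), by simp⟩

theorem sa_sl {F V : Type} [Field F] [AddCommGroup V] {n : ℕ} (φ : V → Matrix (Fin n) (Fin n) F)
    (hd : ∀ v, (φ v).det = 1) (hm : ∀ v w, φ (v + w) = φ v * φ w) (hi : ∀ v r, scalar _ r = φ v → v = 0)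
    (h2 : ∀ v : V, 2 • v = 0) (hc : 2 ^ 3 < Nat.card V) : ¬ PRankLE 2 3 (ProjectiveSpecialLinearGroup (Fin n) F) :=
  not_rank ((mk' _).comp (.mk' (fun v => (⟨φ v.toAdd, hd _⟩ : Matrix.SpecialLinearGroup (Fin n) F))
    fun _ _ => Subtype.ext (hm _ _))) ((injective_iff_map_eq_one _).2 fun v e => by
      obtain ⟨r, -, e⟩ := Matrix.SpecialLinearGroup.mem_center_iff.1 ((eq_one_iff _).1 e)
      exact hi _ r e) h2 hc

/-- `M ⊗ A` for `M ∈ SL₂` and `A ∈ O₂`. -/
def saT {F : Type} [Field F] (p q r s : F) (A : Matrix (Fin 2) (Fin 2) F) (h : p * s - q * r = 1) (hA : A * Aᵀ = 1) :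
    symplecticGroup (Fin 2) F :=
  ⟨fromBlocks (p • A) (q • A) (r • A) (s • A), SymplecticGroup.mem_iff.2 (by
    rw [J, fromBlocks_transpose, fromBlocks_multiply, fromBlocks_multiply]
    simp only [fromBlocks_inj, Matrix.mul_zero, Matrix.mul_one, Matrix.mul_neg, zero_add, add_zero, transpose_smul,
      smul_mul_smul_comm, hA, ← neg_smul, ← add_smul]
    refine ⟨?_, ?_, ?_, ?_⟩
    · rw [show q * p + -p * q = 0 by ring, zero_smul]
    · rw [show q * r + -p * s = -1 by linear_combination -h, neg_smul, one_smul]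
    · rw [show s * p + -r * q = 1 by linear_combination h, one_smul]
    · rw [show s * r + -r * s = 0 by ring, zero_smul])⟩

variable {F : Type} [Field F] [Fintype F]

theorem saT_mul {F : Type} [Field F] (p q r s p' q' r' s' : F) (A B : Matrix (Fin 2) (Fin 2) F) (h hA h' hB) :
    (saT p q r s A h hA * saT p' q' r' s' B h' hB).1 = fromBlocks ((p * p' + q * r') • (A * B))
      ((p * q' + q * s') • (A * B)) ((r * p' + s * r') • (A * B)) ((r * q' + s * s') • (A * B)) := by
  simp only [saT, Submonoid.coe_mul, fromBlocks_multiply, smul_mul_smul_comm, ← add_smul]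

theorem saT_neg {F : Type} [Field F] (h hA) (x : symplecticGroup (Fin 2) F) :
    (saT (-1) 0 0 (-1) 1 h hA * x).1 = -x.1 := by
  change fromBlocks _ _ _ _ * x.1 = _
  rw [zero_smul, neg_smul, one_smul, ← neg_zero, ← fromBlocks_neg, fromBlocks_one, Matrix.neg_mul, Matrix.one_mul]

theorem sa_two {k : ℕ} (h : Fintype.card F = 2 ^ (k + 1)) (v : F) : 2 • v = 0 := by
  have := FiniteField.cast_card_eq_zero F
  rw [h, Nat.cast_pow, pow_eq_zero_iff k.succ_ne_zero] at this
  rw [nsmul_eq_mul, this, zero_mul]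

/-- In `Sp₄(q)` take `±1` times the group `2^{1+4}`-like subgroup `(Q₈ × Q₈)⟨swap⟩`: with `SL₂ × SL₂ ≤ Sp₄`, the elements `(i, i)`, `(j, j)`,
`(1, -1)` and the swap generate an `E₁₆` modulo `-1` (`i² = j² = -1`, `i j = - j i` in `SL₂(q)`).  Tools: `Q5H.not_rank`, or
four commuting involutions and a card computation.  Search the library first (`cf find PSp rank`, `E16`, `H4`). -/
theorem sa_psp4 (h : Odd (Fintype.card F)) : ¬ PRankLE 2 3 (PSp 2 F) := by
  have h2 := two_ne h
  obtain ⟨p, _, n, hp, -⟩ := FiniteField.card' F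
  have : NeZero p := ⟨hp.ne_zero⟩
  obtain ⟨x, y, e⟩ : ∃ x y : F, x ^ 2 + y ^ 2 = -1 := by
    obtain ⟨x, y, e⟩ := CharP.sq_add_sq F p (-1)
    exact ⟨x, y, by simpa using e⟩
  have e1 : x * x + y * y = -1 := by linear_combination e
  have e2 : y * y + x * x = -1 := by linear_combination e
  have o : ∀ s : F, s * s = 1 → ∀ h h', saT s 0 0 s 1 h h' ∈ center (symplecticGroup (Fin 2) F) := fun s _ _ _ =>
    mem_center_iff.2 fun g => Subtype.ext (by
      have : fromBlocks (s • (1 : Matrix (Fin 2) (Fin 2) F)) ((0 : F) • (1 : Matrix (Fin 2) (Fin 2) F))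
          ((0 : F) • (1 : Matrix (Fin 2) (Fin 2) F)) (s • 1) = s • 1 := by
        rw [zero_smul, ← fromBlocks_one, fromBlocks_smul, smul_zero]
      change g.1 * fromBlocks _ _ _ _ = fromBlocks _ _ _ _ * g.1
      rw [this, Matrix.mul_smul, Matrix.smul_mul, Matrix.mul_one, Matrix.one_mul])
  have zc := o (-1) (by simp) (by simp) (by simp)
  have oc := o 1 (by simp) (by simp) (by simp)
  have t : ∀ {x y : symplecticGroup (Fin 2) F}, y ∈ center _ → x = y → x ∈ center _ := fun h e => e ▸ h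
  refine e16x (z := saT (-1) 0 0 (-1) 1 (by simp) (by simp)) (a := saT 0 (-1) 1 0 1 (by simp) (by simp))
    (b := saT x y y (-x) 1 (by linear_combination -e) (by simp))
    (c := saT 1 0 0 1 !![1, 0; 0, -1] (by simp) (by ext i j; fin_cases i <;> fin_cases j <;> simp [mul_apply]))
    (d := saT 1 0 0 1 !![0, 1; 1, 0] (by simp) (by ext i j; fin_cases i <;> fin_cases j <;> simp [mul_apply]))
    (fun k => h2 ?_) zc (t zc ?_) (t zc ?_) (t oc ?_) (t oc ?_) ?_ ?_ ?_ ?_ ?_ ?_
  · have := congrFun (congrFun (congrArg Subtype.val k) (.inl 0)) (.inl 0)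
    simp [saT] at this
    linear_combination -this
  all_goals
    refine Subtype.ext ?_
    simp only [saT_neg, saT_mul]
    simp [saT, fromBlocks_neg, ← one_fin_two, e1, e2, mul_comm]

/-- `Sp₄ ≤ SL₄` (or the same matrices as in `sa_psp4`: `Q₈ ⊗ 1`, `1 ⊗ D₈`, i.e. `2^{1+4}` in `SL₄(q)`; its image modulo scalars is `E₁₆`). -/
theorem sa_l4 (h : Odd (Fintype.card F)) : ¬ PRankLE 2 3 (Matrix.ProjectiveSpecialLinearGroup (Fin 4) F) := by
  exact sa_md4 (md_sl (two_ne h))

/-- The real group `D₈ ∘ D₈ = 2^{1+4}_+` (signed permutation matrices: `diag(±1)` and the Klein four-group of permutations, determinant 1)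
preserves the standard hermitian form; modulo `-1` it is `E₁₆`.  The same matrices do `sa_l4`. -/
theorem sa_u4 {q : ℕ} (h : Fintype.card F = q ^ 2) (o : Odd q) : ¬ PRankLE 2 3 (PSU 4 F q) := by
  obtain ⟨_, s⟩ := exists_isBar h
  exact sa_md4 (md_su s (two_ne (h ▸ o.pow)))

/-- Diagonal matrices with entries `±1` and determinant 1. -/
theorem sa_l5 (h : Odd (Fintype.card F)) : ¬ PRankLE 2 3 (Matrix.ProjectiveSpecialLinearGroup (Fin 5) F) := by
  exact sa_md5 (md_sl (two_ne h))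

theorem sa_u5 {q : ℕ} (h : Fintype.card F = q ^ 2) (o : Odd q) : ¬ PRankLE 2 3 (PSU 5 F q) := by
  obtain ⟨_, s⟩ := exists_isBar h
  exact sa_md5 (md_su s (two_ne (h ▸ o.pow)))

/-- Unitriangular matrices. -/
theorem sa_l2 (h : Fintype.card F = 16) : ¬ PRankLE 2 3 (Matrix.ProjectiveSpecialLinearGroup (Fin 2) F) := by
  refine sa_sl (V := F) (fun t => !![1, t; 0, 1]) (fun _ => by simp) (fun _ _ => by simp [add_comm])
    (fun v r e => ?_) (sa_two (k := 3) h) (by simp [h])
  simpa using (congrFun (congrFun e 0) 1).symm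

theorem sa_l3 (h : Fintype.card F = 4) : ¬ PRankLE 2 3 (Matrix.ProjectiveSpecialLinearGroup (Fin 3) F) := by
  refine sa_sl (V := F × F) (fun t => !![1, 0, t.1; 0, 1, t.2; 0, 0, 1]) (fun _ => by simp [det_fin_three])
    (fun _ _ => by simp [add_comm]) (fun v r e => Prod.ext ?_ ?_)
    (fun v => Prod.ext (sa_two (k := 1) h _) (sa_two (k := 1) h _)) (by simp [h])
  · simpa using (congrFun (congrFun e 0) 2).symm
  · simpa using (congrFun (congrFun e 1) 2).symm

theorem sa_l42 (h : Fintype.card F = 2) : ¬ PRankLE 2 3 (Matrix.ProjectiveSpecialLinearGroup (Fin 4) F) := by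
  have t := sa_two (k := 0) h
  refine sa_sl (V := (F × F) × F × F) (fun t => !![1, 0, t.1.1, t.1.2; 0, 1, t.2.1, t.2.2; 0, 0, 1, 0; 0, 0, 0, 1])
    (fun _ => by simp [det_succ_column_zero, Fin.sum_univ_succ]) (fun _ _ => by simp [add_comm])
    (fun v r e => Prod.ext (Prod.ext ?_ ?_) (Prod.ext ?_ ?_))
    (fun v => Prod.ext (Prod.ext (t _) (t _)) (Prod.ext (t _) (t _))) (by simp [h])
  · simpa using (congrFun (congrFun e 0) 2).symm
  · simpa using (congrFun (congrFun e 0) 3).symm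
  · simpa using (congrFun (congrFun e 1) 2).symm
  · simpa using (congrFun (congrFun e 1) 3).symm

end Cfsg.Lib.R3
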